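import Mathlib

/-!
The discriminant of a strongly regular graph without triangles on an even number of vertices is a
square, and its consequence when the valency and the second parameter are powers of three.
-/

set_option autoImplicit false

namespace CfsgLib.FischerCore

open Matrix

theorem sq_ne_pow_three_mul : ∀ b : ℕ, ∀ s m : ℕ, m % 3 = 2 → s ^ 2 ≠ 3 ^ b * m := by
  intro b
  induction b using Nat.twoStepInduction with
  | zero =>
    intro s m hm h
    rw [pow_zero, one_mul] at h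
    have h1 : s ^ 2 % 3 = 2 := by rw [h]; exact hm
    rw [Nat.pow_mod] at h1
    have := Nat.mod_lt s (show 3 > 0 by norm_num)
    interval_cases s % 3 <;> simp_all
  | one =>
    intro s m hm h
    have h3 : 3 ∣ s := Nat.prime_three.dvd_of_dvd_pow (n := 2) ⟨m, by rw [h, pow_one]⟩
    obtain ⟨t, rfl⟩ := h3
    have h' : 3 * (3 * t ^ 2) = 3 * m := by rw [pow_one] at h; rw [← h]; ring
    omega
  | more b ih _ =>
    intro s m hm h
    have h3 : 3 ∣ s := Nat.prime_three.dvd_of_dvd_pow (n := 2) ⟨3 ^ (b + 1) * m, by rw [h]; ring⟩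
    obtain ⟨t, rfl⟩ := h3
    refine ih t m hm (Nat.eq_of_mul_eq_mul_left (show 0 < 9 by norm_num) ?_)
    calc 9 * t ^ 2 = (3 * t) ^ 2 := by ring
      _ = 3 ^ (b + 2) * m := h
      _ = 9 * (3 ^ b * m) := by ring

theorem three_power_parameters {a b s : ℕ} (hab : b < a)
    (h : s ^ 2 + 4 * 3 ^ b = 9 ^ b + 4 * 3 ^ a) : a = 1 ∧ b = 0 := by
  obtain ⟨d, rfl⟩ := Nat.exists_eq_add_of_lt hab
  obtain rfl | ⟨c, rfl⟩ : b = 0 ∨ ∃ c, b = c + 1 := by
    rcases b with _ | c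
    · exact Or.inl rfl
    · exact Or.inr ⟨c, rfl⟩
  · refine ⟨?_, rfl⟩
    rcases d with _ | d
    · rfl
    exfalso
    have h' : s ^ 2 + 3 = 4 * (9 * 3 ^ d) := by
      rw [show 3 ^ (0 + (d + 1) + 1) = 9 * 3 ^ d by ring, pow_zero, pow_zero, mul_one] at h
      omega
    have h3 : 3 ∣ s := Nat.prime_three.dvd_of_dvd_pow (n := 2) (by omega)
    obtain ⟨t, rfl⟩ := h3
    rw [mul_pow] at h'
    omega
  · exfalso
    have h9 : (9 : ℕ) ^ (c + 1) = 3 ^ (c + 1) * 3 ^ (c + 1) := by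
      rw [← mul_pow]; norm_num
    have hpos : 4 ≤ 3 ^ (c + 1) + 4 * 3 ^ (d + 1) := by
      have := Nat.one_le_pow (d + 1) 3 (by norm_num)
      omega
    refine sq_ne_pow_three_mul (c + 1) s (3 ^ (c + 1) + 4 * 3 ^ (d + 1) - 4) ?_ ?_
    · have h1 : 3 ∣ 3 ^ (c + 1) := dvd_pow_self 3 (by omega)
      have h2 : 3 ∣ 3 ^ (d + 1) := dvd_pow_self 3 (by omega)
      omega
    · rw [Nat.mul_sub, mul_add, ← h9]
      have h10 : 3 ^ (c + 1) * (4 * 3 ^ (d + 1)) = 4 * 3 ^ (c + 1 + d + 1) := by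
        rw [add_assoc (c + 1) d 1, pow_add]; ring
      rw [h10]
      omega

variable {X : Type*} [Fintype X] [DecidableEq X]

/-- For a symmetric zero-one matrix with all row sums `k`, no triangle and `μ` common neighbours at
every non-edge, on an even number of points, the discriminant is a square. -/
theorem isSquare_discr (A : Matrix X X ℚ) (k μ : ℕ) (hμk : μ < k)
    (hrow : ∀ x, ∑ y, A x y = k)
    (hsq : A * A + (μ : ℚ) • A = ((k : ℚ) - μ) • (1 : Matrix X X ℚ) + Matrix.of fun _ _ => (μ : ℚ))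
    (heven : Even (Fintype.card X)) [Nonempty X] :
    IsSquare (μ ^ 2 + 4 * (k - μ)) := by
  obtain ⟨x₀⟩ := ‹Nonempty X›
  have hn : (k : ℚ) * k + μ * k = k - μ + Fintype.card X * μ := by
    have h := congrArg (fun M : Matrix X X ℚ => ∑ y, M x₀ y) hsq
    simp only [Matrix.add_apply, Matrix.smul_apply, Matrix.of_apply, Finset.sum_add_distrib,
      Finset.sum_const, Finset.card_univ, nsmul_eq_mul, smul_eq_mul, ← Finset.mul_sum,
      Matrix.mul_apply, hrow] at h
    rw [Finset.sum_comm] at h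
    simp only [← Finset.mul_sum, hrow, ← Finset.sum_mul, Matrix.one_apply, Finset.sum_ite_eq,
      Finset.mem_univ, if_true, mul_one] at h
    exact h
  obtain ⟨Δ, hΔ⟩ : ∃ Δ : ℚ, (μ : ℚ) ^ 2 + 4 * ((k : ℚ) - μ) = Δ := ⟨_, rfl⟩
  have hΔ0 : Δ ≠ 0 := by
    have : (μ : ℚ) < k := by exact_mod_cast hμk
    rw [← hΔ]
    nlinarith [sq_nonneg (μ : ℚ)]
  obtain ⟨T, hT⟩ : ∃ T : Matrix X X ℚ, (2 : ℚ) • A + (μ : ℚ) • 1 = T := ⟨_, rfl⟩
  have hTT : T * T = Δ • ((1 : Matrix X X ℚ) +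
      replicateCol Unit (fun _ => 4 * (μ : ℚ) / Δ) * replicateRow Unit (fun _ => (1 : ℚ))) := by
    have e1 : T * T = (4 : ℚ) • (A * A + (μ : ℚ) • A) + ((μ : ℚ) ^ 2) • 1 := by
      rw [← hT]
      simp only [Matrix.mul_add, Matrix.add_mul, Matrix.smul_mul, Matrix.mul_smul, Matrix.one_mul,
        Matrix.mul_one, smul_smul, smul_add]
      module
    rw [e1, hsq]
    ext i j
    simp only [Matrix.add_apply, Matrix.smul_apply, Matrix.of_apply, smul_eq_mul,
      Matrix.mul_apply, replicateCol_apply, replicateRow_apply, Finset.univ_unique,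
      Finset.sum_singleton, mul_one]
    rw [← hΔ] at hΔ0 ⊢
    field_simp
    ring
  have hdet : T.det ^ 2 = Δ ^ Fintype.card X * (1 + Fintype.card X * (4 * (μ : ℚ) / Δ)) := by
    rw [sq, ← Matrix.det_mul, hTT, Matrix.det_smul,
      Matrix.det_one_add_replicateCol_mul_replicateRow]
    simp [dotProduct]
  obtain ⟨m, hm⟩ := heven
  have hm0 : 0 < m := by have := Fintype.card_pos (α := X); omega
  have hkey : T.det ^ 2 = Δ * (Δ ^ (m - 1) * (2 * (k : ℚ) + μ)) ^ 2 := by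
    have e2 : Δ + Fintype.card X * (4 * (μ : ℚ)) = (2 * (k : ℚ) + μ) ^ 2 := by
      rw [← hΔ]; linear_combination -4 * hn
    rw [hdet, mul_pow (Δ ^ (m - 1)) (2 * (k : ℚ) + μ) 2, ← e2]
    have e3 : Δ ^ Fintype.card X = Δ * (Δ ^ (m - 1)) ^ 2 * Δ := by
      rw [← pow_mul, ← pow_succ' Δ ((m - 1) * 2), ← pow_succ]
      congr 1
      omega
    rw [e3]
    field_simp
  have hk : (2 * (k : ℚ) + μ) ≠ 0 := by
    have h1 : (μ : ℚ) < k := by exact_mod_cast hμk
    have h2 : (0 : ℚ) ≤ μ := Nat.cast_nonneg μ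
    linarith
  have hsquare : IsSquare Δ := by
    refine ⟨T.det / (Δ ^ (m - 1) * (2 * (k : ℚ) + μ)), ?_⟩
    rw [div_mul_div_comm, eq_div_iff (mul_ne_zero (mul_ne_zero (pow_ne_zero _ hΔ0) hk)
      (mul_ne_zero (pow_ne_zero _ hΔ0) hk)), ← pow_two, ← pow_two, hkey]
  rw [← Rat.isSquare_natCast_iff]
  push_cast [Nat.cast_sub hμk.le]
  rw [hΔ]
  exact hsquare

end CfsgLib.FischerCore
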