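import Cfsg.Agent.FischerCore.Setup
import Cfsg.Agent.FischerCore.Arith
import Cfsg.Agent.ThreeTransp.WidthOne
import Cfsg.Agent.Constrained.Basic

/-!
A primitive 3-transposition group with local twins is the symmetric group of degree five: the
commuting graph has no triangle, its two parameters are powers of three, and the discriminant is
a square.
-/

set_option autoImplicit false
set_option linter.unusedSectionVars false
set_option linter.style.haveILetI false

namespace CfsgLib.FischerCore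

open Cfsg CfsgLib.ThreeTransp

variable {G : Type*} [Group G] {D : Set G} [Finite G]

/-- A non-empty set of members closed under third points, no two commuting, has a power of three
many elements. -/
theorem ncard_widthOne (hD : IsThreeTranspositionSet D) {W : Set G} (hW : W ⊆ D)
    (hne : W.Nonempty) (hcl : ∀ w ∈ W, ∀ v ∈ W, w * v * w ∈ W)
    (hw : ∀ w ∈ W, ∀ v ∈ W, Commute w v → w = v) : ∃ j, W.ncard = 3 ^ j := by
  haveI : Fact (Nat.Prime 3) := ⟨Nat.prime_three⟩
  set K := Subgroup.closure W with hK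
  let W' : Set ↥K := Subtype.val ⁻¹' W
  have hinj : Function.Injective (Subtype.val : ↥K → G) := Subtype.val_injective
  have hclK : ∀ g ∈ K, ∀ v ∈ W, g * v * g⁻¹ ∈ W := by
    intro g hg
    induction hg using Subgroup.closure_induction with
    | mem w hw' => intro v hv; rw [tt_inv hD (hW hw')]; exact hcl w hw' v hv
    | one => intro v hv; simpa using hv
    | mul g₁ g₂ _ _ i₁ i₂ =>
      intro v hv
      rw [show g₁ * g₂ * v * (g₁ * g₂)⁻¹ = g₁ * (g₂ * v * g₂⁻¹) * g₁⁻¹ by group]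
      exact i₁ _ (i₂ v hv)
    | inv g₁ _ i₁ =>
      intro v hv
      have hsurj : (fun z => g₁ * z * g₁⁻¹) '' W = W := by
        refine Set.eq_of_subset_of_ncard_le (fun _ ⟨z, hz, hze⟩ => hze ▸ i₁ z hz) ?_
          (Set.toFinite _)
        rw [Set.ncard_image_of_injective _ fun a b h => mul_left_cancel (mul_right_cancel h)]
      rw [← hsurj] at hv
      obtain ⟨z, hz, rfl⟩ := hv
      simpa [mul_assoc] using hz
  have hW' : IsThreeTranspositionGroup W' := by
    refine ⟨⟨fun d hd => ?_, fun d hd e he => ?_⟩, fun g d hd => hclK g g.2 d hd, ?_⟩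
    · rw [← orderOf_injective K.subtype hinj]; exact hD.1 _ (hW hd)
    · rcases hD.2 _ (hW hd) _ (hW he) with h | h
      · exact Or.inl (Subtype.ext h)
      · exact Or.inr (Subtype.ext h)
    · refine Subgroup.map_injective hinj (?_ : (Subgroup.closure W').map K.subtype = _)
      rw [MonoidHom.map_closure, ← MonoidHom.range_eq_map, Subgroup.range_subtype]
      refine congrArg Subgroup.closure ?_
      ext x
      constructor
      · rintro ⟨y, hy, rfl⟩; exact hy
      · intro hx; exact ⟨⟨x, Subgroup.subset_closure hx⟩, hx, rfl⟩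
  have hw' : WidthOne W' := fun a ha b hb hc =>
    Subtype.ext (hw _ ha _ hb (hc.map K.subtype))
  obtain ⟨w₀, hw₀⟩ := hne
  let d : ↥K := ⟨w₀, Subgroup.subset_closure hw₀⟩
  have hd : d ∈ W' := hw₀
  have hcard : W.ncard = W'.ncard := by
    rw [← Set.ncard_image_of_injective W' hinj]
    congr 1
    ext x
    exact ⟨fun hx => ⟨⟨x, Subgroup.subset_closure hx⟩, hx, rfl⟩, fun ⟨y, hy, hyx⟩ => hyx ▸ hy⟩
  let P : Subgroup ↥K := Cfsg.pCore 3 ↥K
  have horb : MulAction.orbit ↥(P.map (ConjAct.toConjAct : ↥K ≃* ConjAct ↥K).toMonoidHom) d = W' := by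
    ext x
    constructor
    · rintro ⟨⟨_, p, -, rfl⟩, rfl⟩
      exact hW'.2.1 p d hd
    · intro hx
      rw [← hw'.conjugatesOf_eq hW' hd] at hx
      obtain ⟨g, rfl⟩ := isConj_iff.1 hx
      have hmem : g ∈ (↑(P ⊔ Subgroup.zpowers d) : Set ↥K) := by
        rw [sup_comm, hw'.sup_eq_top hW' hd]; exact Set.mem_univ g
      rw [Subgroup.normal_mul] at hmem
      obtain ⟨p, hp, z, hz, rfl⟩ := hmem
      refine ⟨⟨_, p, hp, rfl⟩, ?_⟩
      show p * d * p⁻¹ = p * z * d * (p * z)⁻¹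
      obtain ⟨n, rfl⟩ := Subgroup.mem_zpowers_iff.1 hz
      group
  have hdvd : W.ncard ∣ Nat.card ↥(P.map (ConjAct.toConjAct : ↥K ≃* ConjAct ↥K).toMonoidHom) := by
    rw [hcard, ← horb, ← Nat.card_coe_set_eq]
    rw [Nat.card_coe_set_eq, ← MulAction.index_stabilizer]
    exact Subgroup.index_dvd_card _
  haveI : Finite (ConjAct ↥K) := Finite.of_equiv _ (ConjAct.toConjAct (G := ↥K)).toEquiv
  obtain ⟨j, hj⟩ := IsPGroup.iff_card.1 ((Constrained.isPGroup_pCore (p := 3) (G := ↥K)).map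
    (ConjAct.toConjAct : ↥K ≃* ConjAct ↥K).toMonoidHom)
  rw [hj, Nat.dvd_prime_pow Nat.prime_three] at hdvd
  obtain ⟨i, -, hi⟩ := hdvd
  exact ⟨i, hi⟩

namespace Setting

variable (h : Setting D)

include h

theorem nbr_closed {x : G} {w v : G} (hw : w ∈ nbr D x) (hv : v ∈ nbr D x) :
    w * v * w ∈ nbr D x := by
  have h1 := nbr_conj h.ttg w hv
  rw [tt_inv h.ttg.1 hw.1, hw.2.2.symm.eq, mul_assoc, tt_mul_self h.ttg.1 hw.1, mul_one] at h1
  exact h1

theorem nbr_width {x : G} (hx : x ∈ D) {w v : G} (hw : w ∈ nbr D x) (hv : v ∈ nbr D x)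
    (hc : Commute w v) : w = v := by
  by_contra hne
  have : v ∈ nbr D x ∩ nbr D w := ⟨hv, hv.1, fun e => hne e.symm, hc⟩
  rw [h.no_triangle hx hw] at this
  exact this

/-- A member and two of its neighbours in general position generate the symmetric group of degree
five. -/
theorem iso_five : Nonempty (G ≃* Equiv.Perm (Fin 5)) := by
  classical
  have hD := h.ttg.1
  obtain ⟨x, g, g₂, hx, hgx, hg2, ht2⟩ := h.twin
  obtain ⟨a, ha⟩ := ncard_widthOne hD (fun y hy => hy.1) ⟨g, hgx⟩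
    (fun w hw v hv => h.nbr_closed hw hv) fun w hw v hv => h.nbr_width hx hw hv
  have hdeg : ∀ y ∈ D, (nbr D y).ncard = 3 ^ a := fun y hy => (h.ncard_nbr hy hx).trans ha
  -- a non-commuting pair and its common neighbours
  have hg2nc : ¬ Commute g g₂ := ht2.not_commute hgx hg2
  have hWne : (nbr D g ∩ nbr D g₂).Nonempty :=
    ⟨x, mem_nbr_comm hx hgx, mem_nbr_comm hx ht2.1⟩
  obtain ⟨b, hb⟩ := ncard_widthOne hD (fun y hy => hy.1.1) hWne
    (fun w hw v hv => ⟨h.nbr_closed hw.1 hv.1, h.nbr_closed hw.2 hv.2⟩)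
    fun w hw v hv => h.nbr_width hgx.1 hw.1 hv.1
  have hcommon : ∀ p ∈ D, ∀ q ∈ D, ¬ Commute p q → (nbr D p ∩ nbr D q).ncard = 3 ^ b := by
    intro p hp q hq hpq
    obtain ⟨k, rfl, rfl⟩ := h.pairConj_nonedge hgx.1 ht2.1.1 hp hq hg2nc hpq
    rw [nbr_conjImg h.ttg, nbr_conjImg h.ttg, ← conjImg_inter, ncard_conjImg, hb]
  have hba : 3 ^ b < 3 ^ a := by
    rw [← hb, ← hdeg g hgx.1]
    refine Set.ncard_lt_ncard ⟨Set.inter_subset_left, fun hs => hg2 ?_⟩ (Set.toFinite _)
    exact h.eq_of_nbr_subset hgx.1 ht2.1.1 fun y hy => (hs hy).2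
  -- the adjacency matrix
  haveI : Fintype ↥D := Fintype.ofFinite _
  haveI : Nonempty ↥D := ⟨⟨x, hx⟩⟩
  let A : Matrix ↥D ↥D ℚ := Matrix.of fun p q => if (q : G) ∈ nbr D p then 1 else 0
  have hsum : ∀ S : Set G, S ⊆ D →
      ∑ q : ↥D, (if (q : G) ∈ S then (1 : ℚ) else 0) = S.ncard := by
    intro S hS
    rw [Finset.sum_boole]
    congr 1
    rw [← Set.ncard_coe_finset, ← Set.ncard_image_of_injective _ Subtype.val_injective]
    congr 1
    ext y
    simp only [Finset.coe_filter, Finset.mem_univ, true_and, Set.mem_image, Set.mem_setOf_eq]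
    exact ⟨fun ⟨z, hz, hzy⟩ => hzy ▸ hz, fun hy => ⟨⟨y, hS hy⟩, hy, rfl⟩⟩
  have hAA : ∀ p q : ↥D, (A * A) p q = (nbr D p ∩ nbr D q).ncard := by
    intro p q
    rw [Matrix.mul_apply, ← hsum _ fun y hy => hy.1.1]
    refine Finset.sum_congr rfl fun r _ => ?_
    have hsym : ((q : G) ∈ nbr D r) ↔ (r : G) ∈ nbr D q :=
      ⟨fun hh => mem_nbr_comm r.2 hh, fun hh => mem_nbr_comm q.2 hh⟩
    simp only [A, Matrix.of_apply, Set.mem_inter_iff, hsym]
    split_ifs <;> simp_all
  have hrow : ∀ p : ↥D, ∑ q, A p q = ((3 ^ a : ℕ) : ℚ) := fun p => by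
    simp only [A, Matrix.of_apply]
    rw [← hdeg p p.2]
    convert hsum (nbr D (p : G)) fun y hy => hy.1 using 3
  have hsq : A * A + ((3 ^ b : ℕ) : ℚ) • A =
      (((3 ^ a : ℕ) : ℚ) - (3 ^ b : ℕ)) • (1 : Matrix ↥D ↥D ℚ) +
        Matrix.of fun _ _ => ((3 ^ b : ℕ) : ℚ) := by
    ext p q
    simp only [Matrix.add_apply, Matrix.smul_apply, Matrix.of_apply, smul_eq_mul, hAA,
      Matrix.one_apply, A]
    rcases eq_or_ne p q with rfl | hpq
    · rw [Set.inter_self, hdeg p p.2, if_pos rfl, if_neg fun hh => hh.2.1 rfl]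
      ring
    rw [if_neg hpq]
    by_cases hc : Commute (p : G) q
    · have hm : (q : G) ∈ nbr D p := ⟨q.2, fun e => hpq (Subtype.ext e.symm), hc⟩
      rw [h.no_triangle p.2 hm, if_pos hm, Set.ncard_empty]
      simp
    · rw [hcommon p p.2 q q.2 hc, if_neg fun hh => hc hh.2.2]
      simp
  -- the number of members
  have hn : (3 ^ b : ℚ) * Fintype.card ↥D = (3 ^ a : ℚ) * 3 ^ a + 3 ^ b * 3 ^ a - 3 ^ a + 3 ^ b := by
    have h1 := congrArg (fun M : Matrix ↥D ↥D ℚ => ∑ q, M ⟨x, hx⟩ q) hsq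
    simp only [Matrix.add_apply, Matrix.smul_apply, Matrix.of_apply, Finset.sum_add_distrib,
      Finset.sum_const, Finset.card_univ, nsmul_eq_mul, smul_eq_mul, ← Finset.mul_sum,
      Matrix.mul_apply, hrow] at h1
    rw [Finset.sum_comm] at h1
    simp only [← Finset.mul_sum, hrow, ← Finset.sum_mul, Matrix.one_apply, Finset.sum_ite_eq,
      Finset.mem_univ, if_true, mul_one, Nat.cast_pow, Nat.cast_ofNat] at h1
    linarith
  have hnN : 3 ^ b * Fintype.card ↥D + 3 ^ a = 3 ^ a * 3 ^ a + 3 ^ b * 3 ^ a + 3 ^ b := by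
    have : ((3 ^ b * Fintype.card ↥D + 3 ^ a : ℕ) : ℚ) =
        ((3 ^ a * 3 ^ a + 3 ^ b * 3 ^ a + 3 ^ b : ℕ) : ℚ) := by
      push_cast; linarith
    exact_mod_cast this
  have heven : Even (Fintype.card ↥D) := by
    have o : ∀ n : ℕ, Odd (3 ^ n) := fun n => Odd.pow (by decide)
    have h1 := congrArg (fun m => Even m) hnN
    simp only [Nat.even_add, Nat.even_mul, Nat.not_even_iff_odd.2 (o _), false_or, iff_false,
      eq_iff_iff] at h1
    tauto
  obtain ⟨s, hs⟩ := isSquare_discr A (3 ^ a) (3 ^ b) hba hrow hsq heven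
  have hab : b < a := (Nat.pow_lt_pow_iff_right (by norm_num)).1 hba
  obtain ⟨rfl, rfl⟩ := three_power_parameters (s := s) hab (by
    rw [pow_two, ← hs, Nat.mul_sub, show (9 : ℕ) ^ b = (3 ^ b) ^ 2 by
      rw [← pow_mul, mul_comm, pow_mul]; norm_num]
    omega)
  have hcard : D.ncard = 10 := by
    rw [← Nat.card_coe_set_eq, Nat.card_eq_fintype_card]
    omega
  -- the string
  obtain ⟨e, x₁, hne, ht, ht', hnc⟩ := h.exists_cross hx hgx
  have hxx := ht.not_commute (mem_nbr_comm hx hgx) hne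
  have hge : g ≠ e := fun eq => hnc (eq ▸ ht.1.2.2)
  have heg : ¬ Commute e g := fun hc => ht'.not_commute hgx hge hc.symm
  obtain ⟨φ, hA, hB, hC, hE⟩ := exists_hom_five (tt_mul_self hD hx) (tt_mul_self hD ht.1.1)
    (tt_mul_self hD ht'.1.1) (tt_mul_self hD hgx.1) (tt_braid hD hx ht.1.1 hxx)
    (tt_braid hD ht.1.1 ht'.1.1 (fun hc => hnc hc.symm)) (tt_braid hD ht'.1.1 hgx.1 heg)
    ht'.1.2.2.eq hgx.2.2.eq ht.1.2.2.symm.eq
  have hinj := hom_five_injective φ (by rw [hA, hC]; exact ht'.1.2.1.symm)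
  have hsub : φ '' {σ | Equiv.Perm.IsSwap σ} ⊆ D := by
    rintro _ ⟨σ, hσ, rfl⟩
    have hsw : IsConj pA σ := by
      obtain ⟨i, j, hij, rfl⟩ := hσ
      exact Equiv.Perm.isConj_swap (by decide) hij
    obtain ⟨c, rfl⟩ := isConj_iff.1 hsw
    rw [map_mul, map_mul, map_inv, hA]
    exact h.ttg.2.1 _ x hx
  have hswaps : {σ : Equiv.Perm (Fin 5) | Equiv.Perm.IsSwap σ}.ncard = 10 := by
    have : {σ : Equiv.Perm (Fin 5) | Equiv.Perm.IsSwap σ} =
        ↑((Finset.univ.filter fun p : Fin 5 × Fin 5 => p.1 < p.2).image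
          fun p => Equiv.swap p.1 p.2) := by
      ext σ
      simp only [Set.mem_setOf_eq, Finset.coe_image, Finset.coe_filter, Finset.mem_univ, true_and,
        Set.mem_image, Prod.exists]
      constructor
      · rintro ⟨i, j, hij, rfl⟩
        rcases lt_or_gt_of_ne hij with hlt | hlt
        · exact ⟨i, j, hlt, rfl⟩
        · exact ⟨j, i, hlt, Equiv.swap_comm j i⟩
      · rintro ⟨i, j, hij, rfl⟩
        exact ⟨i, j, hij.ne, rfl⟩
    rw [this, Set.ncard_coe_finset]
    decide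
  have himg : φ '' {σ | Equiv.Perm.IsSwap σ} = D := by
    refine Set.eq_of_subset_of_ncard_le hsub ?_ (Set.toFinite _)
    rw [Set.ncard_image_of_injective _ hinj, hswaps, hcard]
  have hsurj : Function.Surjective φ := by
    rw [← MonoidHom.range_eq_top, eq_top_iff, ← h.ttg.2.2, Subgroup.closure_le, ← himg]
    rintro _ ⟨σ, -, rfl⟩
    exact ⟨σ, rfl⟩
  exact ⟨(MulEquiv.ofBijective φ ⟨hinj, hsurj⟩).symm⟩

end Setting

/-- The neighbours of a member having non-central odd core in the subgroup they generate. -/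
theorem exists_local_twin (hG : IsThreeTranspositionGroup D) {x : G}
    (hO : ¬ Cfsg.pPrimeCore 2 ↥(Subgroup.closure (nbr D x)) ≤
      Subgroup.center ↥(Subgroup.closure (nbr D x))) :
    ∃ e e', e ∈ nbr D x ∧ e ≠ e' ∧ LTwin D x e e' := by
  set H := Subgroup.closure (nbr D x) with hH
  obtain ⟨u, hu, hucen⟩ := SetLike.not_le_iff_exists.1 hO
  obtain ⟨e, he, hue⟩ : ∃ e ∈ nbr D x, ¬ Commute e (u : G) := by
    by_contra hall
    push Not at hall
    refine hucen (Subgroup.mem_center_iff.2 fun k => Subtype.ext ?_)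
    exact (commute_closure_iff.2 hall k k.2).eq
  obtain ⟨eH, heH⟩ : ∃ eH : ↥H, (eH : G) = e := ⟨⟨e, Subgroup.subset_closure he⟩, rfl⟩
  have hux : Commute (u : G) x := commute_of_mem_closure_nbr u.2
  obtain ⟨e', he'⟩ : ∃ e', (u : G) * e * (u : G)⁻¹ = e' := ⟨_, rfl⟩
  have he'x : e' ∈ nbr D x := by
    rw [← he']
    have := nbr_conj hG (u : G) he
    rwa [hux.eq, mul_inv_cancel_right] at this
  have hne : e ≠ e' := fun eq => hue (by
    show e * (u : G) = u * e
    conv_lhs => rw [eq, ← he']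
    rw [inv_mul_cancel_right])
  have hone : ∀ p ∈ nbr D x, Commute p e → p ≠ e → p ∈ nbr D e' := by
    intro p hp hpe hpne
    have hN : (Cfsg.pPrimeCore 2 ↥H).Normal := inferInstance
    obtain ⟨pH, hpH⟩ : ∃ pH : ↥H, (pH : G) = p := ⟨⟨p, Subgroup.subset_closure hp⟩, rfl⟩
    by_cases hc : Commute p e'
    · refine ⟨hp.1, fun eq => ?_, hc.symm⟩
      -- `e` commutes with `e'`, a conjugate of it by an element of odd order
      have hee : Commute e e' := (eq ▸ hpe : Commute e' e).symm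
      apply hpne
      have hz : eH * (u * eH * u⁻¹) ∈ Cfsg.pPrimeCore 2 ↥H := by
        have h2 : eH * eH = 1 := Subtype.ext (by
          simpa [heH] using tt_mul_self hG.1 he.1)
        have := (Cfsg.pPrimeCore 2 ↥H).mul_mem (hN.conj_mem u hu eH) (inv_mem hu)
        rw [inv_eq_of_mul_eq_one_left h2] at this
        simpa [mul_assoc] using this
      have hz2 : (eH * (u * eH * u⁻¹)) * (eH * (u * eH * u⁻¹)) = 1 := Subtype.ext (by
        simp only [Subgroup.coe_mul, Subgroup.coe_inv, heH, he', Subgroup.coe_one]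
        rw [← mul_assoc, mul_assoc e e' e, ← hee.eq]
        simp only [tt_cancel_left hG.1 he.1, tt_mul_self hG.1 he'x.1, mul_assoc])
      have h1 : eH * (u * eH * u⁻¹) = 1 := eq_one_of_odd_core hz hz2
      have h1' : e * e' = 1 := by
        have := congrArg Subtype.val h1
        simpa [heH, he'] using this
      rw [eq, eq_inv_of_mul_eq_one_left h1', tt_inv hG.1 he'x.1]
    · exfalso
      have h2e : eH * eH = 1 := Subtype.ext (by simpa [heH] using tt_mul_self hG.1 he.1)
      have h2p : pH * pH = 1 := Subtype.ext (by simpa [hpH] using tt_mul_self hG.1 hp.1)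
      have h3 : (p * e') ^ 3 = 1 := by
        refine (hG.1.2 p hp.1 e' he'x.1).resolve_left fun h2 => hc ?_
        show p * e' = e' * p
        rw [pow_two] at h2
        rw [eq_inv_of_mul_eq_one_left h2, mul_inv_rev, tt_inv hG.1 hp.1, tt_inv hG.1 he'x.1]
      let π := QuotientGroup.mk' (Cfsg.pPrimeCore 2 ↥H)
      have hu1 : π u = 1 := (QuotientGroup.eq_one_iff u).2 hu
      have h3' : (π pH * π eH) ^ 3 = 1 := by
        have : (pH * (u * eH * u⁻¹)) ^ 3 = 1 := Subtype.ext (by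
          simpa [heH, hpH, he'] using h3)
        have := congrArg π this
        simpa [hu1] using this
      have hcm : Commute pH eH := Subtype.ext (by
        simpa [heH, hpH] using hpe.eq)
      have h2' : (π pH * π eH) ^ 2 = 1 := by
        rw [← map_mul, ← map_pow, hcm.mul_pow, pow_two, pow_two, h2p, h2e, one_mul, map_one]
      have h1 : π (pH * eH) = 1 := by
        rw [map_mul]
        calc π pH * π eH = (π pH * π eH) ^ 3 * ((π pH * π eH) ^ 2)⁻¹ := by group
          _ = 1 := by rw [h3', h2', inv_one, one_mul]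
      have hsq : (pH * eH) * (pH * eH) = 1 := by
        rw [← pow_two, hcm.mul_pow, pow_two, pow_two, h2p, h2e, one_mul]
      have := eq_one_of_odd_core ((QuotientGroup.eq_one_iff _).1 h1) hsq
      apply hpne
      have h4 : p * e = 1 := by
        have := congrArg Subtype.val this
        simpa [heH, hpH] using this
      rw [eq_inv_of_mul_eq_one_left h4, tt_inv hG.1 he.1]
  refine ⟨e, e', he, hne, he'x, ?_⟩
  have hsub : nbr D x ∩ nbr D e ⊆ nbr D x ∩ nbr D e' :=
    fun p hp => ⟨hp.1, hone p hp.1 hp.2.2.2.symm hp.2.2.1⟩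
  refine (Set.eq_of_subset_of_ncard_le hsub ?_ (Set.toFinite _)).symm
  have himg : nbr D x ∩ nbr D e' = conjImg (u : G) (nbr D x ∩ nbr D e) := by
    rw [conjImg_inter, ← nbr_conjImg hG, ← nbr_conjImg hG, he', hux.eq, mul_inv_cancel_right]
  rw [himg, ncard_conjImg]
where
  eq_one_of_odd_core {H : Type _} [Group H] [Finite H] {z : H} (hz : z ∈ Cfsg.pPrimeCore 2 H)
      (h2 : z * z = 1) : z = 1 := by
    haveI : Fact (Nat.Prime 2) := ⟨Nat.prime_two⟩
    by_contra h
    refine Constrained.pPrimeCore_not_dvd (p := 2) (G := H) ?_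
    have h1 : orderOf (⟨z, hz⟩ : ↥(Cfsg.pPrimeCore 2 H)) = 2 :=
      (Subgroup.orderOf_mk z hz).trans (orderOf_eq_prime (by rw [pow_two, h2]) h)
    have h3 := orderOf_dvd_natCard (⟨z, hz⟩ : ↥(Cfsg.pPrimeCore 2 H))
    rwa [h1] at h3

end CfsgLib.FischerCore
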