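import Mathlib
import Cfsg.Agent.Eq.Def_FischerSpaces
import Cfsg.Agent.ThreeTransp.ClassTransitive
import Cfsg.Agent.ThreeTransp.NbrTwins
import Cfsg.Agent.ThreeTransp.LocalSym3

/-!
Primitive 3-transposition groups having local twins: two neighbours of a member `x` with the same
common neighbours with `x`. The key lemma uses the symmetry of a string generating a symmetric group
of degree five; the main consequence is that no three different members commute pairwise.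
-/

set_option autoImplicit false
set_option linter.unusedSectionVars false

namespace CfsgLib.FischerCore

open Cfsg CfsgLib.ThreeTransp

variable {G : Type*} [Group G] {D : Set G}

/-- `b'` is a twin of `b` among the neighbours of `a`. -/
def LTwin (D : Set G) (a b b' : G) : Prop :=
  b' ∈ nbr D a ∧ nbr D a ∩ nbr D b' = nbr D a ∩ nbr D b

/-- The standing hypotheses. -/
structure Setting (D : Set G) : Prop where
  ttg : IsThreeTranspositionGroup D
  prim : IsPrimitiveUnderConj D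
  noncomm : ∃ a ∈ D, ∃ c ∈ D, ¬ Commute a c
  twin : ∃ x e e' : G, x ∈ D ∧ e ∈ nbr D x ∧ e ≠ e' ∧ LTwin D x e e'

theorem conjImg_inter (g : G) (S T : Set G) :
    conjImg g (S ∩ T) = conjImg g S ∩ conjImg g T :=
  Set.image_inter fun _ _ h => mul_left_cancel (mul_right_cancel h)

theorem ncard_conjImg (g : G) (S : Set G) : (conjImg g S).ncard = S.ncard :=
  Set.ncard_image_of_injective _ fun _ _ h => mul_left_cancel (mul_right_cancel h)

theorem mem_nbr_comm {x y : G} (hx : x ∈ D) (h : y ∈ nbr D x) : x ∈ nbr D y :=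
  ⟨hx, fun e => h.2.1 e.symm, h.2.2.symm⟩

theorem mem_nbr_of_commute {x y : G} (hy : y ∈ D) (hne : y ≠ x) (h : Commute x y) : y ∈ nbr D x :=
  ⟨hy, hne, h⟩

theorem LTwin.self {a b : G} (hb : b ∈ nbr D a) : LTwin D a b b := ⟨hb, rfl⟩

theorem LTwin.conj (hG : IsThreeTranspositionGroup D) {a b b' : G} (g : G) (h : LTwin D a b b') :
    LTwin D (g * a * g⁻¹) (g * b * g⁻¹) (g * b' * g⁻¹) := by
  refine ⟨nbr_conj hG g h.1, ?_⟩
  rw [nbr_conjImg hG, nbr_conjImg hG, nbr_conjImg hG, ← conjImg_inter, ← conjImg_inter, h.2]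

theorem LTwin.not_commute {a b b' : G} (_hb : b ∈ nbr D a) (h : LTwin D a b b') (hne : b ≠ b') :
    ¬ Commute b b' := by
  intro hc
  have : b' ∈ nbr D a ∩ nbr D b' := by
    rw [h.2]; exact ⟨h.1, h.1.1, hne.symm, hc⟩
  exact this.2.2.1 rfl

namespace Setting

variable [Finite G] (h : Setting D)

include h

theorem noTwins : NoTwins D := by
  obtain ⟨a, ha, c, hc, hac⟩ := h.noncomm
  exact primitive_noTwins h.ttg h.prim ha hc hac

theorem nbr_nonempty {d : G} (hd : d ∈ D) : (nbr D d).Nonempty := by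
  obtain ⟨x, e, e', hx, he, -⟩ := h.twin
  exact nbr_nonempty_of_conj h.ttg h.prim.1 hx he hd

theorem eq_of_nbr_eq {x y : G} (hx : x ∈ D) (hy : y ∈ D) (he : nbr D x = nbr D y) : x = y := by
  rcases h.prim.2.2 (sameNbr D x) (fun w hw => hw.1) (sameNbr_block h.ttg x).2 with h1 | h1
  · exact h1 ⟨hx, rfl⟩ ⟨hy, he⟩
  · exfalso
    obtain ⟨b, hb⟩ := h.nbr_nonempty hx
    have : b ∈ sameNbr D x := by rw [h1]; exact hb.1
    rw [this.2] at hb
    exact hb.2.1 rfl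

theorem ncard_nbr {x y : G} (hx : x ∈ D) (hy : y ∈ D) : (nbr D x).ncard = (nbr D y).ncard := by
  obtain ⟨g, rfl⟩ := h.prim.1 x hx y hy
  rw [nbr_conjImg h.ttg, ncard_conjImg]

theorem eq_of_nbr_subset {x y : G} (hx : x ∈ D) (hy : y ∈ D) (hs : nbr D x ⊆ nbr D y) : x = y :=
  h.eq_of_nbr_eq hx hy
    (Set.eq_of_subset_of_ncard_le hs (h.ncard_nbr hy hx).le (Set.toFinite _))

theorem pairConj_edge {x e x' e' : G} (hx : x ∈ D) (hx' : x' ∈ D) (he : e ∈ nbr D x)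
    (he' : e' ∈ nbr D x') : ∃ g : G, g * x * g⁻¹ = x' ∧ g * e * g⁻¹ = e' := by
  obtain ⟨a, ha, c, hc, hac⟩ := h.noncomm
  obtain ⟨g, hg⟩ := h.prim.1 x hx x' hx'
  have h1 : g * e * g⁻¹ ∈ nbr D x' := hg ▸ nbr_conj h.ttg g he
  obtain ⟨k, hk, hk'⟩ := nbr_singleClass h.ttg h.prim ha hc hac hx' h1 he'
  refine ⟨k * g, ?_, ?_⟩
  · have hkx : Commute k x' := commute_of_mem_closure_nbr hk
    rw [show k * g * x * (k * g)⁻¹ = k * (g * x * g⁻¹) * k⁻¹ by group, hg, hkx.eq,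
      mul_inv_cancel_right]
  · rw [show k * g * e * (k * g)⁻¹ = k * (g * e * g⁻¹) * k⁻¹ by group, hk']

theorem pairConj_nonedge {p q p' q' : G} (hp : p ∈ D) (hq : q ∈ D) (hp' : p' ∈ D) (hq' : q' ∈ D)
    (h1 : ¬ Commute p q) (h2 : ¬ Commute p' q') :
    ∃ g : G, g * p * g⁻¹ = p' ∧ g * q * g⁻¹ = q' := by
  obtain ⟨g, hg⟩ := h.prim.1 p hp p' hp'
  have h3 : ¬ Commute p' (g * q * g⁻¹) := by
    rw [← hg]; exact fun hc => h1 (commute_conj_iff'.1 hc)
  obtain ⟨b, hb⟩ := h.nbr_nonempty hp'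
  obtain ⟨k, hk, hk'⟩ := noncommute_transitive h.ttg h.prim hp' hb (h.ttg.2.1 g q hq) hq' h3 h2
  refine ⟨k * g, ?_, ?_⟩
  · rw [show k * g * p * (k * g)⁻¹ = k * (g * p * g⁻¹) * k⁻¹ by group, hg, hk.eq,
      mul_inv_cancel_right]
  · rw [show k * g * q * (k * g)⁻¹ = k * (g * q * g⁻¹) * k⁻¹ by group, hk']

/-- Every edge has local twins at either end. -/
theorem exists_twin {a b : G} (ha : a ∈ D) (hb : b ∈ nbr D a) :
    ∃ b', b ≠ b' ∧ LTwin D a b b' := by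
  obtain ⟨x, e, e', hx, he, hne, ht⟩ := h.twin
  obtain ⟨g, rfl, rfl⟩ := h.pairConj_edge hx ha he hb
  exact ⟨g * e' * g⁻¹, fun he => hne (mul_left_cancel (mul_right_cancel he)), ht.conj h.ttg g⟩

/-- The key lemma: a string `x, x₁, e, g` gives an element exchanging its ends. -/
theorem key {g x x₁ e : G} (hg : g ∈ D) (hgx : g ∈ nbr D x) (hx : x ∈ D) (hne : x ≠ x₁)
    (ht : LTwin D g x x₁) (he : e ∈ nbr D x) (hex : ¬ Commute e x₁) : LTwin D x g e := by
  have hD := h.ttg.1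
  have hxg : x ∈ nbr D g := mem_nbr_comm hx hgx
  have hxx : ¬ Commute x x₁ := ht.not_commute hxg hne
  have hge : e ≠ g := fun eq => hex (eq ▸ ht.1.2.2)
  have heg : ¬ Commute e g := by
    intro hc
    have hm : e ∈ nbr D g ∩ nbr D x₁ := by
      rw [ht.2]; exact ⟨⟨he.1, hge, hc.symm⟩, he⟩
    exact hex hm.2.2.2.symm
  obtain ⟨φ, hA, hB, hC, hE⟩ := exists_hom_five (tt_mul_self hD hx) (tt_mul_self hD ht.1.1)
    (tt_mul_self hD he.1) (tt_mul_self hD hg) (tt_braid hD hx ht.1.1 hxx)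
    (tt_braid hD ht.1.1 he.1 (fun hc => hex hc.symm)) (tt_braid hD he.1 hg heg)
    he.2.2.eq hxg.2.2.symm.eq ht.1.2.2.symm.eq
  let σ : Equiv.Perm (Fin 5) := Equiv.swap 0 4 * Equiv.swap 1 3
  have e1 : φ σ * x * (φ σ)⁻¹ = g := by
    rw [← hA, ← hE, ← map_inv, ← map_mul, ← map_mul,
      show σ * pA * σ⁻¹ = pE by decide]
  have e2 : φ σ * x₁ * (φ σ)⁻¹ = e := by
    rw [← hB, ← hC, ← map_inv, ← map_mul, ← map_mul,
      show σ * pB * σ⁻¹ = pC by decide]
  have e3 : φ σ * g * (φ σ)⁻¹ = x := by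
    rw [← hA, ← hE, ← map_inv, ← map_mul, ← map_mul,
      show σ * pE * σ⁻¹ = pA by decide]
  have := ht.conj h.ttg (φ σ)
  rw [e1, e2, e3] at this
  exact this

/-- Every edge has non-commuting twins at both ends. -/
theorem exists_cross {x g : G} (hx : x ∈ D) (hgx : g ∈ nbr D x) :
    ∃ g' x₁, x ≠ x₁ ∧ LTwin D g x x₁ ∧ LTwin D x g g' ∧ ¬ Commute g' x₁ := by
  obtain ⟨x₁, hne, ht⟩ := h.exists_twin hgx.1 (mem_nbr_comm hx hgx)
  obtain ⟨e, he, he'⟩ : ∃ e, e ∈ nbr D x ∧ e ∉ nbr D x₁ :=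
    Set.not_subset.1 fun hs => hne (h.eq_of_nbr_subset hx ht.1.1 hs)
  have hxx := ht.not_commute (mem_nbr_comm hx hgx) hne
  have hec : ¬ Commute e x₁ := fun hc =>
    he' ⟨he.1, fun eq => hxx (eq ▸ he.2.2), hc.symm⟩
  exact ⟨e, x₁, hne, ht, h.key hgx.1 hgx hx hne ht he hec, hec⟩

/-- In a triangle the twins at one corner seen from the two others differ. -/
theorem exists_separating {a c : G} (ha : a ∈ D) (hc : c ∈ nbr D a) :
    ∃ c', LTwin D a c c' ∧ ∀ b ∈ nbr D a ∩ nbr D c, ¬ LTwin D b c c' := by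
  obtain ⟨c', a₁, hne, ht, ht', hnc⟩ := h.exists_cross ha hc
  refine ⟨c', ht', fun b hb hb' => ?_⟩
  have hba : b ∈ nbr D c ∩ nbr D a₁ := by rw [ht.2]; exact ⟨hb.2, hb.1⟩
  have hm : a₁ ∈ nbr D b ∩ nbr D c' := by
    rw [hb'.2]; exact ⟨mem_nbr_comm ht.1.1 hba.2, ht.1⟩
  exact hnc hm.2.2.2

/-- The neighbours of one member not adjacent to a non-commuting one are twins. -/
theorem exists_missing {p q : G} (hp : p ∈ D) (hq : q ∈ D) (hpq : ¬ Commute p q) :
    ∃ y, y ∈ nbr D p ∧ ∀ m, m ∈ nbr D p → m ∉ nbr D q → LTwin D p y m := by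
  obtain ⟨x, g, -, hx, hgx, -⟩ := h.twin
  obtain ⟨x₁, hne, ht⟩ := h.exists_twin hgx.1 (mem_nbr_comm hx hgx)
  have hxx := ht.not_commute (mem_nbr_comm hx hgx) hne
  obtain ⟨k, rfl, rfl⟩ := h.pairConj_nonedge hx ht.1.1 hp hq hxx hpq
  refine ⟨k * g * k⁻¹, nbr_conj h.ttg k hgx, fun m hm hm' => ?_⟩
  obtain ⟨n, hn⟩ : ∃ n, k * n * k⁻¹ = m := ⟨k⁻¹ * m * k, by group⟩
  subst hn
  have hn1 : n ∈ nbr D x := by
    have := nbr_conj h.ttg k⁻¹ hm
    simpa [mul_assoc] using this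
  have hn2 : n ∉ nbr D x₁ := fun hh => hm' (nbr_conj h.ttg k hh)
  have hec : ¬ Commute n x₁ := fun hc =>
    hn2 ⟨hn1.1, fun eq => hxx (eq ▸ hn1.2.2), hc.symm⟩
  exact (h.key hgx.1 hgx hx hne ht hn1 hec).conj h.ttg k

/-- No three different members commute pairwise. -/
theorem no_triangle {x e : G} (hx : x ∈ D) (he : e ∈ nbr D x) :
    nbr D x ∩ nbr D e = ∅ := by
  by_contra hne
  obtain ⟨f₀, hf₀⟩ := Set.nonempty_iff_ne_empty.2 hne
  obtain ⟨g, hgx, hge, hgR⟩ : ∃ g, g ∈ nbr D x ∧ ¬ Commute g e ∧ ¬ LTwin D x e g := by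
    by_contra hall
    have hconn := nbr_connected h.ttg h.prim h.noTwins hx he hf₀.1
    have : ∀ q, q ∈ nbrComp D x e → LTwin D x e q := by
      intro q hq
      induction hq with
      | refl => exact LTwin.self he
      | @tail p q _ hpq ih =>
        by_cases hqe : Commute q e
        · by_cases hqe' : q = e
          · rw [hqe']; exact LTwin.self he
          · exfalso
            have hm : q ∈ nbr D x ∩ nbr D p := by
              rw [ih.2]; exact ⟨hpq.2.1, hpq.2.1.1, hqe', hqe.symm⟩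
            exact hpq.2.2 hm.2.2.2
        · by_contra hq'
          exact hall ⟨q, hpq.2.1, hqe, hq'⟩
    have h1 : f₀ ∈ nbr D x ∩ nbr D f₀ := by rw [(this f₀ hconn).2]; exact hf₀
    exact h1.2.2.1 rfl
  obtain ⟨f, hf, hfg⟩ : ∃ f, f ∈ nbr D x ∩ nbr D e ∧ f ∉ nbr D g := by
    by_contra hall
    push Not at hall
    have hsub : nbr D x ∩ nbr D e ⊆ nbr D x ∩ nbr D g := fun f hf => ⟨hf.1, hall f hf⟩
    refine hgR ⟨hgx, (Set.eq_of_subset_of_ncard_le hsub ?_ (Set.toFinite _)).symm⟩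
    obtain ⟨k, hk1, hk2⟩ := h.pairConj_edge hx hx he hgx
    have h2 : nbr D x ∩ nbr D g = conjImg k (nbr D x ∩ nbr D e) := by
      rw [conjImg_inter, ← nbr_conjImg h.ttg, ← nbr_conjImg h.ttg, hk1, hk2]
    rw [h2, ncard_conjImg]
  obtain ⟨y, -, hy⟩ := h.exists_missing he.1 hgx.1 (fun hc => hge hc.symm)
  have hRsub : ∀ f', LTwin D x f f' → LTwin D e y f' := by
    intro f' hf'
    have h1 : e ∈ nbr D x ∩ nbr D f' := by
      rw [hf'.2]; exact ⟨he, mem_nbr_comm he.1 hf.2⟩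
    refine hy f' (mem_nbr_comm hf'.1.1 h1.2) fun h2 => hfg ?_
    have h3 : g ∈ nbr D x ∩ nbr D f := by
      rw [← hf'.2]; exact ⟨hgx, mem_nbr_comm hgx.1 h2⟩
    exact mem_nbr_comm hf.1.1 h3.2
  obtain ⟨f', hf', hsep⟩ := h.exists_separating hx hf.1
  refine hsep e ⟨he, mem_nbr_comm he.1 hf.2⟩ ?_
  have h1 := hRsub f (LTwin.self hf.1)
  have h2 := hRsub f' hf'
  exact ⟨h2.1, h2.2.trans h1.2.symm⟩

end Setting

end CfsgLib.FischerCore
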